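import Mathlib
import Cfsg.Agent.Lib.Helper86.IP.Defs
import Cfsg.Agent.Lib.Helper80.OneClass
import Cfsg.Agent.Lib.Helper3.CharRegular
import Cfsg.Agent.Lib.Helper81.CharCore

/-!
# S4463 packages (COUNT) (helper15): `LemEx`, `LemPos`, `LemAb`, `LemCount`.
-/

set_option autoImplicit false

universe u

namespace Cfsg.Agent.Lib.Helper15.IP

open Cfsg.Agent.Lib.Helper86.IP Cfsg.Agent.Lib

/-- the trivial character as an element of `IrrCharacter X`. -/
noncomputable def trivIrr (X : Type u) [Group X] : Cfsg.IrrCharacter X :=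
  ⟨fun _ => 1, Helper81.isIrrCharacter_one⟩

theorem charDegree_trivIrr (X : Type u) [Group X] :
    Cfsg.charDegree ((trivIrr X : Cfsg.IrrCharacter X) : X → ℂ) = 1 := by
  unfold Cfsg.charDegree trivIrr
  simp

/-- `|X| = ∑ χ(1)²` in natural numbers. -/
theorem card_eq_sum_degree_sq {X : Type u} [Group X] [Finite X]
    [Fintype (Cfsg.IrrCharacter X)] :
    Nat.card X = ∑ χ : Cfsg.IrrCharacter X, Cfsg.charDegree (χ : X → ℂ) ^ 2 := by
  classical
  have : Fintype X := Fintype.ofFinite X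
  have h := Helper3.sum_degree_sq (G := X)
  have h2 : ∀ χ : Cfsg.IrrCharacter X,
      (χ : X → ℂ) 1 ^ 2 = ((Cfsg.charDegree (χ : X → ℂ) ^ 2 : ℕ) : ℂ) := by
    intro χ
    rw [Helper80.char_one_eq_charDegree (Helper80.isCharacter_of_isIrrCharacter χ.2)]
    push_cast
    rfl
  rw [Finset.sum_congr rfl (fun χ _ => h2 χ), ← Nat.cast_sum] at h
  exact_mod_cast h.symm

/-- **(LemEx)** -/
theorem lemEx : LemEx.{u} := by
  intro X _ _
  have : Finite (Cfsg.IrrCharacter X) := Helper81.irr_finite X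
  have : Nonempty (Cfsg.IrrCharacter X) := ⟨trivIrr X⟩
  obtain ⟨χ₀, hχ₀⟩ :=
    Finite.exists_max (fun χ : Cfsg.IrrCharacter X => Cfsg.charDegree (χ : X → ℂ))
  refine ⟨_, ⟨χ₀, rfl⟩, ?_⟩
  rintro d ⟨χ, rfl⟩
  exact hχ₀ χ

/-- **(LemPos)** -/
theorem lemPos : LemPos.{u} := by
  intro X _ _ b hb
  have := hb.2 ⟨trivIrr X, rfl⟩
  rwa [charDegree_trivIrr] at this

/-- **(LemAb)** -/
theorem lemAb : LemAb.{u} := by
  intro X _ _ b hb hb1 x y
  classical
  have : Fintype X := Fintype.ofFinite X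
  have hfin : Finite (Cfsg.IrrCharacter X) := Helper81.irr_finite X
  have : Fintype (Cfsg.IrrCharacter X) := Fintype.ofFinite _
  have h1 : Nat.card X ≤ Nat.card (Cfsg.IrrCharacter X) := by
    rw [card_eq_sum_degree_sq]
    calc ∑ χ : Cfsg.IrrCharacter X, Cfsg.charDegree (χ : X → ℂ) ^ 2
        ≤ ∑ _χ : Cfsg.IrrCharacter X, 1 := Finset.sum_le_sum (fun χ _ => by
            have h' : Cfsg.charDegree (χ : X → ℂ) ≤ 1 := le_trans (hb.2 ⟨χ, rfl⟩) hb1
            calc _ ≤ 1 ^ 2 := Nat.pow_le_pow_left h' 2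
              _ = 1 := by norm_num)
      _ = Nat.card (Cfsg.IrrCharacter X) := by
        rw [Finset.sum_const, Finset.card_univ, smul_eq_mul, mul_one, Nat.card_eq_fintype_card]
  have h2 := Helper80.sum_card_centralizer_univ (G := X)
  have hle : ∀ g : X, Nat.card (Subgroup.centralizer ({g} : Set X)) ≤ Nat.card X :=
    fun g => Subgroup.card_le_card_group _
  have hx : Nat.card (Subgroup.centralizer ({x} : Set X)) = Nat.card X := by
    by_contra hne
    have hlt : Nat.card (Subgroup.centralizer ({x} : Set X)) < Nat.card X :=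
      lt_of_le_of_ne (hle x) hne
    have h3 := Finset.sum_lt_sum (fun g _ => hle g) ⟨x, Finset.mem_univ x, hlt⟩
    rw [h2, Finset.sum_const, Finset.card_univ, smul_eq_mul, ← Nat.card_eq_fintype_card] at h3
    have h4 := Nat.mul_le_mul_right (Nat.card X) h1
    omega
  have htop : Subgroup.centralizer ({x} : Set X) = ⊤ := (Subgroup.card_eq_iff_eq_top _).mp hx
  have hy : y ∈ Subgroup.centralizer ({x} : Set X) := by rw [htop]; trivial
  exact Subgroup.mem_centralizer_iff.mp hy x (Set.mem_singleton x)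

theorem count_arith (n k s B : ℕ) (hn2 : 2 ≤ n) (hk : 1 ≤ k) (h1 : n + B ≤ 1 + k * B)
    (h4 : s * (B + 1) ≤ (n - 1) * n) (h5 : n + s = k * n) : False := by
  obtain ⟨j, rfl⟩ : ∃ j, k = j + 1 := ⟨k - 1, by omega⟩
  obtain ⟨m, rfl⟩ : ∃ m, n = m + 2 := ⟨n - 2, by omega⟩
  have hs : s = j * (m + 2) := by
    have : (j + 1) * (m + 2) = j * (m + 2) + (m + 2) := by ring
    omega
  subst hs
  have h4' : (j * (B + 1)) * (m + 2) ≤ (m + 1) * (m + 2) := by
    have : (m + 2 - 1) = m + 1 := by omega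
    rw [this] at h4
    calc (j * (B + 1)) * (m + 2) = j * (m + 2) * (B + 1) := by ring
      _ ≤ _ := h4
  have h6 : j * (B + 1) ≤ m + 1 := Nat.le_of_mul_le_mul_right h4' (by omega)
  have h7 : (j + 1) * B = j * B + B := by ring
  have h8 : j * (B + 1) = j * B + j := by ring
  have hj0 : j = 0 := by omega
  subst hj0
  omega

/-- **(LemCount)** -/
theorem lemCount : LemCount.{u} := by
  intro X _ _ _ b hb
  classical
  have : Fintype X := Fintype.ofFinite X
  have hfin : Finite (Cfsg.IrrCharacter X) := Helper81.irr_finite X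
  have : Fintype (Cfsg.IrrCharacter X) := Fintype.ofFinite _
  by_contra hcon
  push Not at hcon
  have hn2 : 2 ≤ Nat.card X := Finite.one_lt_card
  have hk1 : 1 ≤ Nat.card (Cfsg.IrrCharacter X) := by
    have : Nonempty (Cfsg.IrrCharacter X) := ⟨trivIrr X⟩
    exact Nat.card_pos
  have h1 : Nat.card X + b ^ 2 ≤ 1 + Nat.card (Cfsg.IrrCharacter X) * b ^ 2 := by
    rw [card_eq_sum_degree_sq,
      ← Finset.add_sum_erase Finset.univ _ (Finset.mem_univ (trivIrr X)), charDegree_trivIrr]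
    have hsum : ∑ χ ∈ Finset.univ.erase (trivIrr X), Cfsg.charDegree (χ : X → ℂ) ^ 2
        ≤ (Nat.card (Cfsg.IrrCharacter X) - 1) * b ^ 2 := by
      calc _ ≤ ∑ _χ ∈ Finset.univ.erase (trivIrr X), b ^ 2 :=
            Finset.sum_le_sum (fun χ _ => Nat.pow_le_pow_left (hb.2 ⟨χ, rfl⟩) 2)
        _ = (Nat.card (Cfsg.IrrCharacter X) - 1) * b ^ 2 := by
          rw [Finset.sum_const, Finset.card_erase_of_mem (Finset.mem_univ _), Finset.card_univ,
            smul_eq_mul, Nat.card_eq_fintype_card]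
    obtain ⟨j, hj⟩ : ∃ j, Nat.card (Cfsg.IrrCharacter X) = j + 1 :=
      ⟨Nat.card (Cfsg.IrrCharacter X) - 1, by omega⟩
    rw [hj] at hsum ⊢
    have h7 : (j + 1) * b ^ 2 = j * b ^ 2 + b ^ 2 := by ring
    have h8 : (j + 1 - 1) * b ^ 2 = j * b ^ 2 := by rw [Nat.add_sub_cancel]
    omega
  have h2 := Helper80.sum_card_centralizer_univ (G := X)
  have h3 : ∀ g : X, g ≠ 1 →
      Nat.card (Subgroup.centralizer ({g} : Set X)) * (b ^ 2 + 1) ≤ Nat.card X := by
    intro g hg
    have hlt := hcon g hg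
    have hidx := Subgroup.card_mul_index (Subgroup.centralizer ({g} : Set X))
    calc _ ≤ Nat.card (Subgroup.centralizer ({g} : Set X))
          * (Subgroup.centralizer ({g} : Set X)).index := Nat.mul_le_mul_left _ hlt
      _ = Nat.card X := hidx
  have h4 : (∑ g ∈ Finset.univ.erase (1 : X), Nat.card (Subgroup.centralizer ({g} : Set X)))
      * (b ^ 2 + 1) ≤ (Nat.card X - 1) * Nat.card X := by
    rw [Finset.sum_mul]
    calc _ ≤ ∑ _g ∈ Finset.univ.erase (1 : X), Nat.card X :=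
          Finset.sum_le_sum (fun g hg => h3 g (Finset.ne_of_mem_erase hg))
      _ = (Nat.card X - 1) * Nat.card X := by
        rw [Finset.sum_const, Finset.card_erase_of_mem (Finset.mem_univ _), Finset.card_univ,
          smul_eq_mul, Nat.card_eq_fintype_card]
  have h5 : Nat.card X
      + ∑ g ∈ Finset.univ.erase (1 : X), Nat.card (Subgroup.centralizer ({g} : Set X))
      = Nat.card (Cfsg.IrrCharacter X) * Nat.card X := by
    rw [← h2, ← Finset.add_sum_erase Finset.univ _ (Finset.mem_univ (1 : X))]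
    congr 1
    have htop : Subgroup.centralizer ({1} : Set X) = ⊤ := by
      ext x
      simp [Subgroup.mem_centralizer_iff]
    rw [htop, Subgroup.card_top]
  exact count_arith _ _ _ _ hn2 hk1 h1 h4 h5

end Cfsg.Agent.Lib.Helper15.IP

example : Cfsg.Agent.Lib.Helper86.IP.LemEx.{u} := Cfsg.Agent.Lib.Helper15.IP.lemEx
example : Cfsg.Agent.Lib.Helper86.IP.LemPos.{u} := Cfsg.Agent.Lib.Helper15.IP.lemPos
example : Cfsg.Agent.Lib.Helper86.IP.LemAb.{u} := Cfsg.Agent.Lib.Helper15.IP.lemAb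
example : Cfsg.Agent.Lib.Helper86.IP.LemCount.{u} := Cfsg.Agent.Lib.Helper15.IP.lemCount
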